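import Cfsg.Prelude.Def_Characters
import Cfsg.Prelude.Def_ParabolicCharacters
import Cfsg.Agent.Eq.Def_Characters
import Cfsg.Agent.Eq.Def_ParabolicCharacters
import Cfsg.Agent.Chars.Basic
import Cfsg.Agent.Chars.Induced.Basic
import Cfsg.Agent.Chars.Induced.Rep

/-!
# Characters of `GL₂(q)` induced from the Borel subgroup
-/

set_option autoImplicit false

noncomputable section

open scoped ComplexConjugate
open Cfsg

namespace CfsgLib.Gl2Chars

universe u

/-- An induced function as a sum over a transversal. -/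
lemma indFun_eq_sum_transversal {G : Type u} [Group G] [Fintype G] {ι : Type*} [Fintype ι]
    (H : Subgroup G) {θ : H → ℂ} (hθ : IsClassFunction H θ) (r : ι → G)
    (hr : Function.Bijective fun p : ι × H => r p.1 * (p.2 : G)) (g : G) :
    indFun H θ g = ∑ i, extendByZero H θ ((r i)⁻¹ * g * r i) := by
  classical
  have e : ∀ (i : ι) (h : H), extendByZero H θ ((r i * (h : G))⁻¹ * g * (r i * (h : G))) =
      extendByZero H θ ((r i)⁻¹ * g * r i) := by
    intro i h
    rw [← CfsgLib.Chars.Induced.extendByZero_conj hθ h⁻¹ ((r i)⁻¹ * g * r i)]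
    congr 1
    simp [mul_assoc]
  have hs : ∑ x : G, extendByZero H θ (x⁻¹ * g * x) =
      ∑ p : ι × H, extendByZero H θ ((r p.1)⁻¹ * g * r p.1) := by
    rw [← Fintype.sum_equiv (Equiv.ofBijective _ hr) _ _ (fun p => rfl)]
    exact Finset.sum_congr rfl fun p _ => e p.1 p.2
  simp only [indFun]
  rw [hs, Fintype.sum_prod_type]
  simp only [Finset.sum_const, Finset.card_univ, nsmul_eq_mul, ← Finset.mul_sum,
    ← Nat.card_eq_fintype_card]
  rw [← mul_assoc, inv_mul_cancel₀ (CfsgLib.Chars.Induced.card_subgroup_ne_zero H), one_mul]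

variable {F : Type u} [Field F]

local notation "GL₂" F => Matrix.GeneralLinearGroup (Fin 2) F
local notation "M₂" g => ((g : Matrix.GeneralLinearGroup (Fin 2) _) : Matrix (Fin 2) (Fin 2) _)

/-- An element of `GL₂` from its entries. -/
def gmk (a b c e : F) (h : a * e - b * c ≠ 0) : GL₂ F :=
  Matrix.GeneralLinearGroup.mkOfDetNeZero !![a, b; c, e] (by rwa [Matrix.det_fin_two_of])

@[simp] lemma coe_gmk (a b c e : F) (h : a * e - b * c ≠ 0) :
    ((gmk a b c e h : GL₂ F) : Matrix (Fin 2) (Fin 2) F) = !![a, b; c, e] := rfl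

lemma det_ne_zero' (g : GL₂ F) :
    (g : Matrix (Fin 2) (Fin 2) F) 0 0 * (g : Matrix (Fin 2) (Fin 2) F) 1 1 -
      (g : Matrix (Fin 2) (Fin 2) F) 0 1 * (g : Matrix (Fin 2) (Fin 2) F) 1 0 ≠ 0 := by
  have := Matrix.GeneralLinearGroup.det_ne_zero g
  rwa [Matrix.det_fin_two] at this

lemma mem_upper {g : GL₂ F} :
    g ∈ upperTriangularGL 2 F ↔ (g : Matrix (Fin 2) (Fin 2) F) 1 0 = 0 := by
  constructor
  · intro h
    exact h (show (0 : Fin 2) < 1 by decide)
  · intro h i j hij
    fin_cases i <;> fin_cases j <;> simp at hij ⊢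
    exact h

lemma upper_diag_ne_zero {g : GL₂ F} (hg : g ∈ upperTriangularGL 2 F) :
    (g : Matrix (Fin 2) (Fin 2) F) 0 0 ≠ 0 ∧ (g : Matrix (Fin 2) (Fin 2) F) 1 1 ≠ 0 := by
  have := det_ne_zero' g
  rw [mem_upper.1 hg, mul_zero, sub_zero] at this
  exact ⟨left_ne_zero_of_mul this, right_ne_zero_of_mul this⟩

/-- Coset representatives of the Borel subgroup. -/
def rep : Option F → GL₂ F
  | none => 1
  | some t => gmk t 1 1 0 (by simp)

/-- The inverse of `rep (some t)`. -/
def repInv (t : F) : GL₂ F := gmk 0 1 1 (-t) (by simp)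

lemma rep_some_inv (t : F) : (rep (some t) : GL₂ F)⁻¹ = repInv t := by
  refine inv_eq_of_mul_eq_one_right (Units.ext ?_)
  rw [Units.val_mul]
  simp [rep, repInv, Matrix.one_fin_two]

lemma conj_rep_entries (g : GL₂ F) (t : F) :
    ((((rep (some t))⁻¹ * g * rep (some t) : GL₂ F)) : Matrix (Fin 2) (Fin 2) F) =
      !![(g : Matrix (Fin 2) (Fin 2) F) 1 0 * t + (g : Matrix (Fin 2) (Fin 2) F) 1 1,
        (g : Matrix (Fin 2) (Fin 2) F) 1 0;
        (g : Matrix (Fin 2) (Fin 2) F) 0 0 * t + (g : Matrix (Fin 2) (Fin 2) F) 0 1 -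
          t * ((g : Matrix (Fin 2) (Fin 2) F) 1 0 * t + (g : Matrix (Fin 2) (Fin 2) F) 1 1),
        (g : Matrix (Fin 2) (Fin 2) F) 0 0 - t * (g : Matrix (Fin 2) (Fin 2) F) 1 0] := by
  rw [rep_some_inv]
  ext i j
  fin_cases i <;> fin_cases j <;>
    simp [rep, repInv, Matrix.mul_apply, Matrix.vecMul, dotProduct, Fin.sum_univ_two] <;> ring

lemma rep_bijective : Function.Bijective
    fun p : Option F × (upperTriangularGL 2 F) => rep p.1 * (p.2 : GL₂ F) := by
  constructor
  · rintro ⟨o, b⟩ ⟨o', b'⟩ h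
    have hb := mem_upper.1 b.2
    have hb' := mem_upper.1 b'.2
    have hd := (upper_diag_ne_zero b.2).1
    have hd' := (upper_diag_ne_zero b'.2).1
    have hM : ∀ i j, ((rep o * (b : GL₂ F) : GL₂ F) : Matrix (Fin 2) (Fin 2) F) i j =
        ((rep o' * (b' : GL₂ F) : GL₂ F) : Matrix (Fin 2) (Fin 2) F) i j :=
      fun i j => congrArg (fun x : GL₂ F => (x : Matrix (Fin 2) (Fin 2) F) i j) h
    have h00 := hM 0 0
    have h10 := hM 1 0
    rcases o with _ | t <;> rcases o' with _ | t' <;>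
      simp [rep, Matrix.mul_apply, Fin.sum_univ_two, hb, hb'] at h00 h10 ⊢
    · exact Subtype.ext (by simpa [rep] using h)
    · exact hd' h10.symm
    · exact hd h10
    · rw [h10] at h00
      have ht : t = t' := mul_right_cancel₀ hd' h00
      subst ht
      exact ⟨rfl, Subtype.ext (mul_left_cancel h)⟩
  · intro g
    by_cases hg : (g : Matrix (Fin 2) (Fin 2) F) 1 0 = 0
    · exact ⟨⟨none, g, mem_upper.2 hg⟩, by simp [rep]⟩
    · refine ⟨⟨some ((g : Matrix (Fin 2) (Fin 2) F) 0 0 / (g : Matrix (Fin 2) (Fin 2) F) 1 0),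
        (rep (some ((g : Matrix (Fin 2) (Fin 2) F) 0 0 / (g : Matrix (Fin 2) (Fin 2) F) 1 0)))⁻¹ * g,
        mem_upper.2 ?_⟩, by simp⟩
      rw [rep_some_inv]
      simp [repInv, Matrix.mul_apply, Fin.sum_univ_two]
      field_simp
      ring

variable [Fintype F]

/-! ## Multiplicative characters -/

lemma conj_mulChar (α : MulChar F ℂ) (a : F) : conj (α a) = α⁻¹ a := by
  rw [← MulChar.star_eq_inv]
  exact (MulChar.star_apply α a).symm

lemma norm_mulChar (α : MulChar F ℂ) {a : F} (ha : a ≠ 0) : ‖α a‖ = 1 := by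
  refine Complex.norm_eq_one_of_pow_eq_one (n := Fintype.card F - 1) ?_
    (by have := Fintype.one_lt_card (α := F); omega)
  rw [← map_pow, FiniteField.pow_card_sub_one_eq_one a ha, map_one]

variable [DecidableEq F]

lemma sum_units_eq_sum (α : MulChar F ℂ) :
    ∑ a : Fˣ, α (a : F) = ∑ a : F, α a := by
  classical
  rw [← Finset.add_sum_erase _ _ (Finset.mem_univ (0 : F)), α.map_zero, zero_add]
  refine Finset.sum_bij (fun a _ => (a : F)) (fun a _ => ?_) (fun a _ b _ h => Units.ext h)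
    (fun b hb => ⟨Units.mk0 b (Finset.ne_of_mem_erase hb), Finset.mem_univ _, rfl⟩) (fun a _ => rfl)
  exact Finset.mem_erase.2 ⟨a.ne_zero, Finset.mem_univ _⟩

open scoped Classical in
/-- Row orthogonality. -/
lemma mulChar_orth (α β : MulChar F ℂ) :
    ∑ a : Fˣ, α (a : F) * conj (β (a : F)) =
      if α = β then (Fintype.card F : ℂ) - 1 else 0 := by
  simp only [conj_mulChar, ← MulChar.mul_apply]
  split_ifs with h
  · subst h
    simp [Fintype.card_units, Nat.cast_sub (Fintype.card_pos (α := F) : 1 ≤ Fintype.card F)]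
  · rw [sum_units_eq_sum, MulChar.sum_eq_zero_of_ne_one]
    intro h1
    exact h (mul_inv_eq_one.1 h1)

instance instFintypeMulChar : Fintype (MulChar F ℂ) := Fintype.ofFinite _

lemma card_mulChar : Fintype.card (MulChar F ℂ) = Fintype.card F - 1 := by
  classical
  rw [← Nat.card_eq_fintype_card, MulChar.card_eq_card_units_of_hasEnoughRootsOfUnity,
    Nat.card_eq_fintype_card, Fintype.card_units]

open scoped Classical in
/-- Column orthogonality. -/
lemma mulChar_sum_apply (a : Fˣ) :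
    ∑ α : MulChar F ℂ, α (a : F) = if a = 1 then (Fintype.card F : ℂ) - 1 else 0 := by
  split_ifs with h
  · subst h
    simp only [Units.val_one, map_one, Finset.sum_const, Finset.card_univ, card_mulChar,
      nsmul_eq_mul, mul_one]
    rw [Nat.cast_sub (Fintype.card_pos (α := F)), Nat.cast_one]
  · obtain ⟨χ, hχ⟩ := MulChar.exists_apply_ne_one_of_hasEnoughRootsOfUnity F ℂ
      (a := (a : F)) (fun e => h (Units.ext e))
    have e : χ (a : F) * ∑ α : MulChar F ℂ, α (a : F) = ∑ α : MulChar F ℂ, α (a : F) := by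
      rw [Finset.mul_sum]
      refine Fintype.sum_equiv (Equiv.mulLeft χ) _ _ fun α => ?_
      simp
    have h0 : (χ (a : F) - 1) * ∑ α : MulChar F ℂ, α (a : F) = 0 := by
      rw [sub_mul, one_mul, e, sub_self]
    exact (mul_eq_zero.1 h0).resolve_left (sub_ne_zero.2 hχ)

/-! ## The linear characters -/

/-- `α ∘ det`. -/
def detHom (α : MulChar F ℂ) : (GL₂ F) →* ℂˣ :=
  α.toUnitHom.comp Matrix.GeneralLinearGroup.det

/-- `α ∘ det` as a function. -/
def lc (α : MulChar F ℂ) : (GL₂ F) → ℂ := fun g => α (Matrix.det (g : Matrix (Fin 2) (Fin 2) F))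

lemma lc_eq (α : MulChar F ℂ) : lc α = fun g : GL₂ F => ((detHom α g : ℂˣ) : ℂ) := by
  funext g
  simp [lc, detHom, MulChar.coe_toUnitHom]

lemma isIrr_lc (α : MulChar F ℂ) : IsIrrCharacter (GL₂ F) (lc α) := by
  rw [lc_eq]
  exact CfsgLib.Chars.isIrrCharacter_monoidHom _

lemma isClassFunction_lc (α : MulChar F ℂ) : IsClassFunction (GL₂ F) (lc α) :=
  CfsgLib.Chars.isClassFunction_of_isCharacter
    (CfsgLib.Chars.isCharacter_of_isIrrCharacter (isIrr_lc α))

/-- The linear character `b ↦ α(b₀₀) β(b₁₁)` of the Borel subgroup. -/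
def bFun (α β : MulChar F ℂ) : upperTriangularGL 2 F → ℂ := fun b =>
  α (((b : GL₂ F) : Matrix (Fin 2) (Fin 2) F) 0 0) * β (((b : GL₂ F) : Matrix (Fin 2) (Fin 2) F) 1 1)

/-- `bFun` as a monoid homomorphism. -/
def bHom (α β : MulChar F ℂ) : upperTriangularGL 2 F →* ℂ where
  toFun := bFun α β
  map_one' := by simp [bFun]
  map_mul' x y := by
    have hx := mem_upper.1 x.2
    have hy := mem_upper.1 y.2
    simp [bFun, Matrix.mul_apply, Fin.sum_univ_two, hx, hy]
    ring

lemma isClassFunction_bFun (α β : MulChar F ℂ) :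
    IsClassFunction (upperTriangularGL 2 F) (bFun α β) := by
  intro g h
  show bHom α β (h * g * h⁻¹) = bHom α β g
  have h1 : bHom α β h * bHom α β h⁻¹ = 1 := by rw [← map_mul, mul_inv_cancel, map_one]
  rw [map_mul, map_mul]
  linear_combination (bHom α β g) * h1

/-- The induced character. -/
def ps (α β : MulChar F ℂ) : (GL₂ F) → ℂ := indFun (upperTriangularGL 2 F) (bFun α β)

lemma isCharacter_ps (α β : MulChar F ℂ) : IsCharacter (GL₂ F) (ps α β) :=
  CfsgLib.Chars.Induced.isCharacter_indFun_hom _ (bHom α β)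

lemma isClassFunction_ps (α β : MulChar F ℂ) : IsClassFunction (GL₂ F) (ps α β) :=
  CfsgLib.Chars.Induced.indFun_isClassFunction _ _

lemma extendByZero_bFun (α β : MulChar F ℂ) (x : GL₂ F) :
    extendByZero (upperTriangularGL 2 F) (bFun α β) x =
      if (x : Matrix (Fin 2) (Fin 2) F) 1 0 = 0 then
        α ((x : Matrix (Fin 2) (Fin 2) F) 0 0) * β ((x : Matrix (Fin 2) (Fin 2) F) 1 1)
      else 0 := by
  split_ifs with h
  · rw [CfsgLib.Chars.Induced.extendByZero_mem _ (mem_upper.2 h)]; rfl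
  · exact CfsgLib.Chars.Induced.extendByZero_notMem _ (fun hm => h (mem_upper.1 hm))

/-- The values of the induced character. -/
lemma ps_apply (α β : MulChar F ℂ) (g : GL₂ F) :
    ps α β g =
      (if (g : Matrix (Fin 2) (Fin 2) F) 1 0 = 0 then
        α ((g : Matrix (Fin 2) (Fin 2) F) 0 0) * β ((g : Matrix (Fin 2) (Fin 2) F) 1 1) else 0) +
      ∑ t : F, if (g : Matrix (Fin 2) (Fin 2) F) 0 0 * t + (g : Matrix (Fin 2) (Fin 2) F) 0 1 -
          t * ((g : Matrix (Fin 2) (Fin 2) F) 1 0 * t + (g : Matrix (Fin 2) (Fin 2) F) 1 1) = 0 then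
        α ((g : Matrix (Fin 2) (Fin 2) F) 1 0 * t + (g : Matrix (Fin 2) (Fin 2) F) 1 1) *
          β ((g : Matrix (Fin 2) (Fin 2) F) 0 0 - t * (g : Matrix (Fin 2) (Fin 2) F) 1 0) else 0 := by
  rw [ps, indFun_eq_sum_transversal _ (isClassFunction_bFun α β) rep rep_bijective,
    Fintype.sum_option, extendByZero_bFun]
  congr 1
  · simp [rep]
  · refine Finset.sum_congr rfl fun t _ => ?_
    rw [extendByZero_bFun, conj_rep_entries]
    simp

lemma fixedPointCharacter_upper (g : GL₂ F) :
    fixedPointCharacter (upperTriangularGL 2 F) g = ps 1 1 g := by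
  classical
  let e : Option F ≃ (GL₂ F) ⧸ upperTriangularGL 2 F :=
    Equiv.ofBijective (fun o => (rep o : (GL₂ F) ⧸ upperTriangularGL 2 F)) (by
      constructor
      · intro o o' h
        have hm := QuotientGroup.eq.1 h
        have := rep_bijective.injective (a₁ := (o, ⟨_, hm⟩)) (a₂ := (o', 1)) (by simp)
        exact congrArg Prod.fst this
      · intro c
        obtain ⟨g, rfl⟩ := QuotientGroup.mk_surjective c
        obtain ⟨⟨o, b⟩, rfl⟩ := rep_bijective.surjective g
        exact ⟨o, (QuotientGroup.mk_mul_of_mem (rep o) b.2).symm⟩)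
  have hfix : ∀ o : Option F, e o ∈ MulAction.fixedBy ((GL₂ F) ⧸ upperTriangularGL 2 F) g ↔
      (rep o)⁻¹ * g * rep o ∈ upperTriangularGL 2 F := by
    intro o
    rw [MulAction.mem_fixedBy]
    show ((g * rep o : GL₂ F) : (GL₂ F) ⧸ upperTriangularGL 2 F) = (rep o : GL₂ F) ↔ _
    rw [eq_comm, QuotientGroup.eq, mul_assoc]
  rw [fixedPointCharacter, ps,
    indFun_eq_sum_transversal _ (isClassFunction_bFun 1 1) rep rep_bijective,
    Nat.card_congr (e.subtypeEquiv (q := fun c => c ∈ MulAction.fixedBy _ g)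
      (fun o => (hfix o).symm)).symm, Nat.card_eq_fintype_card, Fintype.card_subtype,
    Finset.card_eq_sum_ones, Nat.cast_sum, Finset.sum_filter]
  refine Finset.sum_congr rfl fun o _ => ?_
  split_ifs with h
  · rw [CfsgLib.Chars.Induced.extendByZero_mem _ h]
    obtain ⟨h0, h1⟩ := upper_diag_ne_zero h
    simp only [bFun]
    rw [MulChar.one_apply (isUnit_iff_ne_zero.2 h0), MulChar.one_apply (isUnit_iff_ne_zero.2 h1)]
    simp
  · rw [CfsgLib.Chars.Induced.extendByZero_notMem _ h]

/-! ## Inner products -/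

instance instFintypeUpper : Fintype (upperTriangularGL 2 F) := Fintype.ofFinite _

/-- Upper triangular matrices by entries. -/
def bEquiv : upperTriangularGL 2 F ≃ (Fˣ × Fˣ) × F where
  toFun b := ((Units.mk0 _ (upper_diag_ne_zero b.2).1, Units.mk0 _ (upper_diag_ne_zero b.2).2),
    ((b : GL₂ F) : Matrix (Fin 2) (Fin 2) F) 0 1)
  invFun p := ⟨gmk (p.1.1 : F) p.2 0 p.1.2 (by simp), mem_upper.2 (by simp)⟩
  left_inv b := by
    apply Subtype.ext
    apply Units.ext
    ext i j
    fin_cases i <;> fin_cases j <;> simp [mem_upper.1 b.2]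
  right_inv p := by simp

lemma card_upper : (Nat.card (upperTriangularGL 2 F) : ℂ) =
    ((Fintype.card F : ℂ) - 1) ^ 2 * Fintype.card F := by
  rw [Nat.card_congr bEquiv, Nat.card_prod, Nat.card_prod, Nat.card_eq_fintype_card,
    Fintype.card_units, Nat.card_eq_fintype_card, Nat.cast_mul, Nat.cast_mul,
    Nat.cast_sub (Fintype.card_pos (α := F)), Nat.cast_one]
  ring

lemma sum_upper (f : upperTriangularGL 2 F → ℂ) :
    ∑ b, f b = ∑ a : Fˣ, ∑ e : Fˣ, ∑ c : F, f (bEquiv.symm ((a, e), c)) := by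
  rw [← Fintype.sum_equiv bEquiv.symm (fun p => f (bEquiv.symm p)) f (fun _ => rfl),
    Fintype.sum_prod_type, Fintype.sum_prod_type]

lemma ps_upper (α β : MulChar F ℂ) (a e : Fˣ) (c : F) :
    ps α β ((bEquiv.symm ((a, e), c) : upperTriangularGL 2 F) : GL₂ F) =
      α (a : F) * β (e : F) +
        ∑ t : F, if ((a : F) - e) * t + c = 0 then α (e : F) * β (a : F) else 0 := by
  rw [ps_apply]
  simp only [bEquiv, Equiv.coe_fn_symm_mk, coe_gmk, Matrix.of_apply, Matrix.cons_val',
    Matrix.cons_val_zero, Matrix.cons_val_one, Matrix.empty_val',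
    Matrix.cons_val_fin_one, if_true]
  congr 1
  refine Finset.sum_congr rfl fun t _ => ?_
  simp only [zero_mul, zero_add, mul_zero, sub_zero]
  congr 1
  exact propext ⟨fun h => by linear_combination h, fun h => by linear_combination h⟩

open scoped Classical in
/-- `⟨Ind(α,β), Ind(α',β')⟩`. -/
theorem classInner_ps (α β α' β' : MulChar F ℂ) :
    classInner (ps α β) (ps α' β') =
      (if α = α' ∧ β = β' then 1 else 0) + (if α = β' ∧ β = α' then 1 else 0) := by
  have hq : (Fintype.card F : ℂ) ≠ 0 := Nat.cast_ne_zero.2 Fintype.card_ne_zero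
  have hq1 : (Fintype.card F : ℂ) - 1 ≠ 0 := by
    rw [sub_ne_zero]; exact_mod_cast (Fintype.one_lt_card (α := F)).ne'
  have hcount : ∀ (a e : Fˣ) (x : ℂ),
      ∑ c : F, ∑ t : F, (if ((a : F) - e) * t + c = 0 then x else 0) =
        (Fintype.card F : ℂ) * x := by
    intro a e x
    rw [Finset.sum_comm]
    simp [add_eq_zero_iff_eq_neg', Finset.sum_ite_eq']
  rw [ps, ps, CfsgLib.Chars.Induced.classInner_indFun_right (upperTriangularGL 2 F) (bFun α' β')
    (CfsgLib.Chars.Induced.indFun_isClassFunction _ _)]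
  rw [classInner, card_upper, sum_upper]
  have hterm : ∀ a e : Fˣ,
      ∑ c : F, indFun (upperTriangularGL 2 F) (bFun α β)
          ((bEquiv.symm ((a, e), c) : upperTriangularGL 2 F) : GL₂ F) *
        conj (bFun α' β' (bEquiv.symm ((a, e), c))) =
      (Fintype.card F : ℂ) * ((α (a : F) * conj (α' (a : F))) * (β (e : F) * conj (β' (e : F)))) +
        (Fintype.card F : ℂ) * ((β (a : F) * conj (α' (a : F))) * (α (e : F) * conj (β' (e : F)))) := by
    intro a e
    have hb : ∀ c : F, bFun α' β' (bEquiv.symm ((a, e), c)) = α' (a : F) * β' (e : F) := fun c => by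
      simp [bFun, bEquiv]
    simp only [hb]
    rw [← Finset.sum_mul]
    rw [show (∑ c : F, indFun (upperTriangularGL 2 F) (bFun α β)
      ((bEquiv.symm ((a, e), c) : upperTriangularGL 2 F) : GL₂ F)) =
      ∑ c : F, (α (a : F) * β (e : F) +
        ∑ t : F, if ((a : F) - e) * t + c = 0 then α (e : F) * β (a : F) else 0) from
      Finset.sum_congr rfl fun c _ => ps_upper α β a e c]
    rw [Finset.sum_add_distrib, hcount, Finset.sum_const, Finset.card_univ, nsmul_eq_mul, map_mul]
    ring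
  simp only [hterm, Finset.sum_add_distrib, ← Finset.mul_sum, ← Finset.sum_mul, mulChar_orth]
  split_ifs <;> first | (exfalso; tauto) | (field_simp <;> ring1) | simp

open scoped Classical in
/-- `⟨Ind(α,β), γ∘det⟩`. -/
theorem classInner_ps_lc (α β γ : MulChar F ℂ) :
    classInner (ps α β) (lc γ) = if α = γ ∧ β = γ then 1 else 0 := by
  have hq : (Fintype.card F : ℂ) ≠ 0 := Nat.cast_ne_zero.2 Fintype.card_ne_zero
  have hq1 : (Fintype.card F : ℂ) - 1 ≠ 0 := by
    rw [sub_ne_zero]; exact_mod_cast (Fintype.one_lt_card (α := F)).ne'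
  rw [ps, CfsgLib.Chars.Induced.classInner_indFun (upperTriangularGL 2 F) (bFun α β)
    (isClassFunction_lc γ)]
  rw [classInner, card_upper, sum_upper]
  have hterm : ∀ a e : Fˣ,
      ∑ c : F, bFun α β (bEquiv.symm ((a, e), c)) *
        conj (lc γ ((bEquiv.symm ((a, e), c) : upperTriangularGL 2 F) : GL₂ F)) =
      (Fintype.card F : ℂ) * ((α (a : F) * conj (γ (a : F))) * (β (e : F) * conj (γ (e : F)))) := by
    intro a e
    simp [bFun, bEquiv, lc, Matrix.det_fin_two]
    ring
  simp only [hterm, ← Finset.mul_sum, ← Finset.sum_mul, mulChar_orth]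
  split_ifs <;> first | (exfalso; tauto) | (field_simp <;> ring1) | simp

end CfsgLib.Gl2Chars
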