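import Cfsg.Agent.Gl2Chars.Borel
import Cfsg.Agent.Gl2.Companion
import Mathlib.LinearAlgebra.Matrix.GeneralLinearGroup.Card

/-!
# The character degrees of `GL₂(q)`
-/

set_option autoImplicit false

noncomputable section

open scoped ComplexConjugate Classical
open Cfsg

namespace CfsgLib.Gl2Chars

universe u

variable {F : Type u} [Field F] [Fintype F] [DecidableEq F]

local notation "GL₂" F => Matrix.GeneralLinearGroup (Fin 2) F

local notation "qC" F => (Fintype.card F : ℂ)

lemma lc_one (α : MulChar F ℂ) : lc α (1 : GL₂ F) = 1 := by simp [lc]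

lemma index_upper : ((upperTriangularGL 2 F).index : ℂ) = (qC F) + 1 := by
  classical
  have h : Nat.card ((GL₂ F) ⧸ upperTriangularGL 2 F) = Nat.card (Option F) := by
    refine (Nat.card_eq_of_bijective
      (fun o : Option F => (rep o : (GL₂ F) ⧸ upperTriangularGL 2 F)) ⟨?_, ?_⟩).symm
    · intro o o' h
      have hm := QuotientGroup.eq.1 h
      exact congrArg Prod.fst (rep_bijective.injective (a₁ := (o, ⟨_, hm⟩)) (a₂ := (o', 1)) (by simp))
    · intro c
      obtain ⟨g, rfl⟩ := QuotientGroup.mk_surjective c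
      obtain ⟨⟨o, b⟩, rfl⟩ := rep_bijective.surjective g
      exact ⟨o, (QuotientGroup.mk_mul_of_mem (rep o) b.2).symm⟩
  rw [Subgroup.index, h, Nat.card_eq_fintype_card, Fintype.card_option]
  push_cast
  ring

lemma ps_one (α β : MulChar F ℂ) : ps α β (1 : GL₂ F) = (qC F) + 1 := by
  rw [ps, CfsgLib.Chars.Induced.indFun_one_apply, index_upper, bFun]
  simp

/-- The twisted Steinberg character. -/
def st (α : MulChar F ℂ) : (GL₂ F) → ℂ := ps α α - lc α

lemma st_one (α : MulChar F ℂ) : st α (1 : GL₂ F) = qC F := by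
  simp [st, ps_one, lc_one]

lemma isCharacter_st (α : MulChar F ℂ) : IsCharacter (GL₂ F) (st α) := by
  have hne : classInner (ps α α) (lc α) ≠ 0 := by simp [classInner_ps_lc]
  obtain ⟨φ, hφ, e⟩ := CfsgLib.Chars.exists_add_of_classInner_ne_zero (isCharacter_ps α α)
    ⟨lc α, isIrr_lc α⟩ hne
  have : st α = φ := by rw [st, e]; simp
  rwa [this]

lemma classInner_lc (α β : MulChar F ℂ) :
    classInner (lc α : (GL₂ F) → ℂ) (lc β) = if α = β then 1 else 0 := by
  split_ifs with h
  · subst h; exact CfsgLib.Chars.classInner_self ⟨lc α, isIrr_lc α⟩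
  · refine CfsgLib.Chars.classInner_of_ne (χ := ⟨lc α, isIrr_lc α⟩) (ψ := ⟨lc β, isIrr_lc β⟩) ?_
    intro e
    refine h (MulChar.ext fun a => ?_)
    have := congrFun (congrArg Subtype.val e) (gmk (a : F) 0 0 1 (by simp))
    simpa [lc] using this

lemma classInner_lc_ps (γ α β : MulChar F ℂ) :
    classInner (lc γ : (GL₂ F) → ℂ) (ps α β) = if α = γ ∧ β = γ then 1 else 0 := by
  rw [← CfsgLib.Chars.classInner_conj_symm, classInner_ps_lc]
  split_ifs <;> simp

lemma isIrr_st (α : MulChar F ℂ) : IsIrrCharacter (GL₂ F) (st α) := by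
  refine CfsgLib.Chars.isIrrCharacter_of_classInner_self (isCharacter_st α) ?_
  have e : ∀ f : (GL₂ F) → ℂ, classInner f (st α) = classInner f (ps α α) - classInner f (lc α) := by
    intro f
    rw [← CfsgLib.Chars.classInner_conj_symm, st, CfsgLib.Chars.classInner_sub_left, map_sub,
      CfsgLib.Chars.classInner_conj_symm, CfsgLib.Chars.classInner_conj_symm]
  rw [e, st, CfsgLib.Chars.classInner_sub_left, CfsgLib.Chars.classInner_sub_left,
    classInner_ps, classInner_ps_lc, classInner_lc_ps, classInner_lc]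
  simp

/-- Principal series: irreducibility. -/
lemma isIrr_ps {α β : MulChar F ℂ} (h : α ≠ β) : IsIrrCharacter (GL₂ F) (ps α β) :=
  CfsgLib.Chars.isIrrCharacter_of_classInner_self (isCharacter_ps α β)
    (by simp [classInner_ps, h])

lemma ps_swap (α β : MulChar F ℂ) : ps α β = ps β α := by
  have hs : ∀ γ δ : MulChar F ℂ,
      classInner (ps α β - ps β α) (ps γ δ) = 0 := by
    intro γ δ
    rw [CfsgLib.Chars.classInner_sub_left, classInner_ps, classInner_ps, sub_eq_zero]
    rw [add_comm]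
    congr 1 <;> exact if_congr (by tauto) rfl rfl
  have hf : IsClassFunction (GL₂ F) (ps α β - ps β α) := fun g h => by
    simp [isClassFunction_ps α β g h, isClassFunction_ps β α g h]
  have h0 : classInner (ps α β - ps β α) (ps α β - ps β α) = 0 := by
    rw [← CfsgLib.Chars.classInner_conj_symm, CfsgLib.Chars.classInner_sub_left,
      ← CfsgLib.Chars.classInner_conj_symm _ (ps α β), ← CfsgLib.Chars.classInner_conj_symm _ (ps β α),
      hs, hs]
    simp
  rw [← sub_eq_zero]
  rw [CfsgLib.Chars.classInner_eq_sum hf] at h0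
  refine CfsgLib.Chars.eq_zero_of_classInner_eq_zero hf fun χ => ?_
  have h1 : ∑ χ : IrrCharacter (GL₂ F),
      ((Complex.normSq (classInner (ps α β - ps β α) (χ : (GL₂ F) → ℂ)) : ℝ) : ℂ) = 0 := by
    rw [← h0]
    exact Finset.sum_congr rfl fun χ _ => (Complex.mul_conj _).symm
  rw [← Complex.ofReal_sum, Complex.ofReal_eq_zero,
    Finset.sum_eq_zero_iff_of_nonneg (fun _ _ => Complex.normSq_nonneg _)] at h1
  exact Complex.normSq_eq_zero.1 (h1 χ (Finset.mem_univ _))

lemma ps_eq_iff (α β α' β' : MulChar F ℂ) :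
    ps α β = ps α' β' ↔ (α = α' ∧ β = β') ∨ (α = β' ∧ β = α') := by
  constructor
  · intro h
    by_contra hcon
    push Not at hcon
    have h1 : classInner (ps α β) (ps α β) ≠ 0 := by
      rw [classInner_ps]; split_ifs <;> norm_num <;> tauto
    apply h1
    nth_rw 2 [h]
    rw [classInner_ps, if_neg (fun e => hcon.1 e.1 e.2), if_neg (fun e => hcon.2 e.1 e.2), add_zero]
  · rintro (⟨rfl, rfl⟩ | ⟨rfl, rfl⟩)
    · rfl
    · exact ps_swap α β

/-- `χ` is cuspidal: orthogonal to every principal series character. -/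
def IsCusp (χ : (GL₂ F) → ℂ) : Prop := ∀ α β : MulChar F ℂ, classInner (ps α β) χ = 0

/-- Every irreducible character is linear, twisted Steinberg, principal series or cuspidal. -/
theorem trichotomy {χ : (GL₂ F) → ℂ} (hχ : IsIrrCharacter (GL₂ F) χ) (hc : ¬ IsCusp χ) :
    (∃ α, χ = lc α) ∨ (∃ α, χ = st α) ∨ (∃ α β, α ≠ β ∧ χ = ps α β) := by
  simp only [IsCusp, not_forall] at hc
  obtain ⟨α, β, hne⟩ := hc
  by_cases h : α = β
  · subst h
    have e : ps α α = lc α + st α := by simp [st]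
    rw [e, CfsgLib.Chars.classInner_add_left] at hne
    by_cases h1 : classInner (lc α) χ = 0
    · right; left
      refine ⟨α, ?_⟩
      by_contra hd
      refine hne ?_
      rw [h1, zero_add]
      exact CfsgLib.Chars.classInner_of_ne
        (χ := ⟨st α, isIrr_st α⟩) (ψ := ⟨χ, hχ⟩) (fun e => hd (congrArg Subtype.val e).symm)
    · left
      refine ⟨α, ?_⟩
      by_contra hd
      exact h1 (CfsgLib.Chars.classInner_of_ne
        (χ := ⟨lc α, isIrr_lc α⟩) (ψ := ⟨χ, hχ⟩) (fun e => hd (congrArg Subtype.val e).symm))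
  · right; right
    refine ⟨α, β, h, ?_⟩
    by_contra hd
    exact hne (CfsgLib.Chars.classInner_of_ne
      (χ := ⟨ps α β, isIrr_ps h⟩) (ψ := ⟨χ, hχ⟩) (fun e => hd (congrArg Subtype.val e).symm))

lemma not_isCusp_lc (α : MulChar F ℂ) : ¬ IsCusp (lc α : (GL₂ F) → ℂ) := fun h => by
  have := h α α
  simp [classInner_ps_lc] at this

lemma not_isCusp_st (α : MulChar F ℂ) : ¬ IsCusp (st α : (GL₂ F) → ℂ) := fun h => by
  have h1 := h α α
  rw [← CfsgLib.Chars.classInner_conj_symm, map_eq_zero, st, CfsgLib.Chars.classInner_sub_left,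
    classInner_ps, classInner_lc_ps] at h1
  simp at h1

lemma not_isCusp_ps {α β : MulChar F ℂ} (h : α ≠ β) : ¬ IsCusp (ps α β : (GL₂ F) → ℂ) := fun hc => by
  have := hc α β
  simp [classInner_ps, h] at this

/-! ## Cuspidal characters -/

/-- The transvection subgroup element. -/
def uu (c : F) : GL₂ F := gmk 1 c 0 1 (by simp)

omit [Fintype F] [DecidableEq F] in
lemma uu_add (s t : F) : (uu (s + t) : GL₂ F) = uu s * uu t := by
  apply Units.ext
  simp [uu, add_comm]

omit [Fintype F] [DecidableEq F] in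
lemma uu_zero : (uu 0 : GL₂ F) = 1 := Units.ext (by simp [uu, Matrix.one_fin_two])

/-- A cuspidal character sums to zero on the unipotent group. -/
lemma sum_uu_of_isCusp {χ : (GL₂ F) → ℂ} (hχ : IsIrrCharacter (GL₂ F) χ) (hc : IsCusp χ) :
    ∑ c : F, χ (uu c) = 0 := by
  have hcl := CfsgLib.Chars.isClassFunction_of_isCharacter
    (CfsgLib.Chars.isCharacter_of_isIrrCharacter hχ)
  have h0 : ∑ α : MulChar F ℂ, ∑ β : MulChar F ℂ,
      classInner (bFun α β) (fun h : upperTriangularGL 2 F => χ h) = 0 := by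
    refine Finset.sum_eq_zero fun α _ => Finset.sum_eq_zero fun β _ => ?_
    rw [← CfsgLib.Chars.Induced.classInner_indFun (upperTriangularGL 2 F) (bFun α β) hcl]
    exact hc α β
  simp only [classInner, ← Finset.mul_sum, mul_eq_zero, inv_eq_zero,
    CfsgLib.Chars.Induced.card_subgroup_ne_zero, false_or] at h0
  rw [Finset.sum_congr rfl (fun α _ => Finset.sum_comm), Finset.sum_comm, sum_upper] at h0
  have he : ∀ (a e : Fˣ) (c : F), ∑ α : MulChar F ℂ, ∑ β : MulChar F ℂ,
      bFun α β (bEquiv.symm ((a, e), c)) *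
        conj (χ ((bEquiv.symm ((a, e), c) : upperTriangularGL 2 F) : GL₂ F)) =
      (if a = 1 then (qC F) - 1 else 0) * (if e = 1 then (qC F) - 1 else 0) *
        conj (χ ((bEquiv.symm ((a, e), c) : upperTriangularGL 2 F) : GL₂ F)) := by
    intro a e c
    rw [← mulChar_sum_apply, ← mulChar_sum_apply, Finset.sum_mul_sum, Finset.sum_mul]
    refine Finset.sum_congr rfl fun α _ => ?_
    rw [Finset.sum_mul]
    refine Finset.sum_congr rfl fun β _ => ?_
    simp [bFun, bEquiv]
  simp only [he, ite_mul, zero_mul, mul_ite, mul_zero, Finset.sum_ite_irrel, Finset.sum_const_zero,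
    Finset.sum_ite_eq', Finset.mem_univ, if_true, ← Finset.mul_sum, mul_eq_zero] at h0
  rcases h0 with h0 | h0
  · exfalso
    have h1 : (qC F) - 1 = 0 := by tauto
    rw [sub_eq_zero] at h1
    exact (Fintype.one_lt_card (α := F)).ne' (by exact_mod_cast h1)
  · rw [← map_sum, map_eq_zero] at h0
    rw [← h0]
    refine Finset.sum_congr rfl fun c _ => congrArg χ (Units.ext ?_)
    simp [uu, bEquiv]

lemma map_uu_eq {χ : (GL₂ F) → ℂ} (hχ : IsClassFunction (GL₂ F) χ) {c : F} (hc : c ≠ 0) :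
    χ (uu c) = χ (uu 1) := by
  refine (CfsgLib.Chars.eq_of_isConj hχ (isConj_iff.2 ⟨gmk c 0 0 1 (by simpa using hc), ?_⟩)).symm
  rw [mul_inv_eq_iff_eq_mul]
  apply Units.ext
  simp [uu]

lemma cusp_degree {χ : (GL₂ F) → ℂ} (hχ : IsIrrCharacter (GL₂ F) χ) (hc : IsCusp χ) :
    ∃ m : ℕ, 0 < m ∧ χ 1 = m * ((qC F) - 1) ∧ χ (uu 1) = -(m : ℂ) := by
  have hch := CfsgLib.Chars.isCharacter_of_isIrrCharacter hχ
  obtain ⟨n, hn, hn1⟩ := CfsgLib.Chars.exists_pos_natCast_map_one hχ
  have hsum := sum_uu_of_isCusp hχ hc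
  rw [← Finset.add_sum_erase _ _ (Finset.mem_univ (0 : F)), uu_zero, hn1,
    Finset.sum_congr rfl (fun c hc => map_uu_eq (CfsgLib.Chars.isClassFunction_of_isCharacter hch)
      (Finset.ne_of_mem_erase hc)), Finset.sum_const, Finset.card_erase_of_mem (Finset.mem_univ _),
    Finset.card_univ, nsmul_eq_mul] at hsum
  have hq := Fintype.one_lt_card (α := F)
  set k := Fintype.card F - 1 with hk
  have hk0 : (k : ℂ) ≠ 0 := Nat.cast_ne_zero.2 (by omega)
  have hval : χ (uu 1) = ((-(n : ℚ) / k : ℚ) : ℂ) := by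
    push_cast
    rw [eq_div_iff hk0]
    linear_combination hsum
  have hint := CfsgLib.Chars.isIntegral_apply hch (uu 1)
  rw [hval, show ((-(n : ℚ) / k : ℚ) : ℂ) = algebraMap ℚ ℂ (-(n : ℚ) / k) by simp,
    isIntegral_algebraMap_iff (algebraMap ℚ ℂ).injective] at hint
  obtain ⟨z, hz⟩ := IsIntegrallyClosed.isIntegral_iff.1 hint
  simp only [eq_intCast] at hz
  have hz' : (z : ℚ) * k = -(n : ℚ) := by
    rw [hz, div_mul_cancel₀ _ (by exact_mod_cast (by omega : k ≠ 0))]
  have hzi : z * (k : ℤ) = -(n : ℤ) := by exact_mod_cast hz'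
  have hz0 : z < 0 := by
    by_contra h
    push Not at h
    have : 0 ≤ z * (k : ℤ) := by positivity
    omega
  refine ⟨(-z).toNat, by omega, ?_, ?_⟩
  · have e : ((-z).toNat : ℤ) = -z := Int.toNat_of_nonneg (by omega)
    have e' : ((-z).toNat : ℂ) = ((-z : ℤ) : ℂ) := by rw [← Int.cast_natCast, e]
    have hzc : (z : ℂ) * k = -(n : ℂ) := by exact_mod_cast hzi
    rw [hn1, e', show (qC F) - 1 = (k : ℂ) by rw [hk, Nat.cast_sub hq.le, Nat.cast_one]]
    push_cast
    linear_combination hzc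
  · have e : ((-z).toNat : ℤ) = -z := Int.toNat_of_nonneg (by omega)
    have e' : ((-z).toNat : ℂ) = ((-z : ℤ) : ℂ) := by rw [← Int.cast_natCast, e]
    rw [e', hval, ← hz]
    push_cast
    ring

/-! ## Counting -/

/-- The class representatives: scalars and companion matrices. -/
def classRep : Fˣ ⊕ (F × Fˣ) → GL₂ F
  | .inl a => gmk (a : F) 0 0 a (by simp)
  | .inr p => CfsgLib.Gl2.companionGL p.1 p.2

lemma card_classes : Nat.card (ConjClasses (GL₂ F)) = Fintype.card F ^ 2 - 1 := by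
  have hcent : ∀ (a : Fˣ) (g : GL₂ F), g * classRep (.inl a) * g⁻¹ = classRep (.inl a) := by
    intro a g
    rw [mul_inv_eq_iff_eq_mul]
    apply Units.ext
    ext i j
    fin_cases i <;> fin_cases j <;> simp [classRep, Matrix.mul_apply, Fin.sum_univ_two] <;> ring
  have hbij : Function.Bijective fun x => ConjClasses.mk (classRep (F := F) x) := by
    constructor
    · intro x y h
      have h' := ConjClasses.mk_eq_mk_iff_isConj.1 h
      rcases x with a | ⟨t, d⟩ <;> rcases y with b | ⟨s, e⟩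
      · obtain ⟨g, hg⟩ := isConj_iff.1 h'
        rw [hcent] at hg
        have := congrArg (fun M : GL₂ F => (M : Matrix (Fin 2) (Fin 2) F) 0 0) hg
        simp [classRep] at this
        exact congrArg Sum.inl (Units.ext this)
      · exfalso
        obtain ⟨g, hg⟩ := isConj_iff.1 h'
        rw [hcent] at hg
        have := congrArg (fun M : GL₂ F => (M : Matrix (Fin 2) (Fin 2) F) 1 0) hg
        simp [classRep, CfsgLib.Gl2.companionGL, CfsgLib.Gl2.companion2] at this
      · exfalso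
        obtain ⟨g, hg⟩ := isConj_iff.1 h'.symm
        rw [hcent] at hg
        have := congrArg (fun M : GL₂ F => (M : Matrix (Fin 2) (Fin 2) F) 1 0) hg
        simp [classRep, CfsgLib.Gl2.companionGL, CfsgLib.Gl2.companion2] at this
      · obtain ⟨g, hg⟩ := isConj_iff.1 h'
        have htr := congrArg (fun M : GL₂ F => (M : Matrix (Fin 2) (Fin 2) F).trace) hg
        have hde := congrArg (fun M : GL₂ F => (M : Matrix (Fin 2) (Fin 2) F).det) hg
        simp only [classRep, Units.val_mul, Matrix.trace_units_conj, Matrix.det_units_conj] at htr hde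
        simp [CfsgLib.Gl2.companionGL, CfsgLib.Gl2.trace_companion2,
          CfsgLib.Gl2.det_companion2] at htr hde
        rw [htr, Units.ext hde]
    · intro c
      obtain ⟨g, rfl⟩ := ConjClasses.mk_surjective c
      by_cases hs : CfsgLib.Gl2.IsScalar2 (g : Matrix (Fin 2) (Fin 2) F)
      · obtain ⟨h01, h10, h00⟩ := hs
        have hd := det_ne_zero' g
        rw [h01, zero_mul, sub_zero] at hd
        refine ⟨.inl (Units.mk0 _ (left_ne_zero_of_mul hd)), congrArg ConjClasses.mk (Units.ext ?_)⟩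
        ext i j
        fin_cases i <;> fin_cases j <;> simp [classRep, h01, h10, h00]
      · exact ⟨.inr ((g : Matrix (Fin 2) (Fin 2) F).trace, Matrix.GeneralLinearGroup.det g),
          ConjClasses.mk_eq_mk_iff_isConj.2 (CfsgLib.Gl2.isConj_companionGL g hs)⟩
  rw [← Nat.card_eq_of_bijective _ hbij, Nat.card_sum, Nat.card_prod, Nat.card_eq_fintype_card,
    Nat.card_eq_fintype_card, Fintype.card_units]
  obtain ⟨r, hr⟩ : ∃ r, Fintype.card F = r + 1 := ⟨_, (Nat.succ_pred_eq_of_pos Fintype.card_pos).symm⟩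
  rw [hr, Nat.add_sub_cancel, add_sq]
  simp
  ring_nf

/-- The non-cuspidal characters of the three kinds. -/
def linSet : Finset (IrrCharacter (GL₂ F)) :=
  Finset.univ.image fun α : MulChar F ℂ => ⟨lc α, isIrr_lc α⟩

/-- Twisted Steinberg characters. -/
def stSet : Finset (IrrCharacter (GL₂ F)) :=
  Finset.univ.image fun α : MulChar F ℂ => ⟨st α, isIrr_st α⟩

/-- Principal series characters. -/
def psSet : Finset (IrrCharacter (GL₂ F)) :=
  Finset.univ.filter fun χ => ∃ α β : MulChar F ℂ, α ≠ β ∧ (χ : (GL₂ F) → ℂ) = ps α β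

/-- Cuspidal characters. -/
def cuspSet : Finset (IrrCharacter (GL₂ F)) :=
  Finset.univ.filter fun χ => IsCusp (χ : (GL₂ F) → ℂ)

lemma card_linSet : (linSet (F := F)).card = Fintype.card F - 1 := by
  rw [linSet, Finset.card_image_of_injective, Finset.card_univ, card_mulChar]
  intro α β h
  by_contra hne
  have e : (lc α : (GL₂ F) → ℂ) = lc β := congrArg Subtype.val h
  have := classInner_lc (F := F) α β
  rw [if_neg hne, ← e, classInner_lc, if_pos rfl] at this
  exact one_ne_zero this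

lemma card_stSet : (stSet (F := F)).card = Fintype.card F - 1 := by
  rw [stSet, Finset.card_image_of_injective, Finset.card_univ, card_mulChar]
  intro α β h
  by_contra hne
  have e : (st α : (GL₂ F) → ℂ) = st β := congrArg Subtype.val h
  have h1 : classInner (st α) (ps α α) = (1 : ℂ) := by
    rw [st, CfsgLib.Chars.classInner_sub_left, classInner_ps, classInner_lc_ps]
    simp
  rw [e, st, CfsgLib.Chars.classInner_sub_left, classInner_ps, classInner_lc_ps] at h1
  simp [hne, Ne.symm hne] at h1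

lemma card_psSet : 2 * (psSet (F := F)).card = (Fintype.card F - 1) * (Fintype.card F - 2) := by
  set s : Finset (MulChar F ℂ × MulChar F ℂ) := Finset.univ.offDiag with hs
  have hmem : ∀ p ∈ s, p.1 ≠ p.2 := fun p hp => (Finset.mem_offDiag.1 hp).2.2
  have himg : psSet (F := F) = s.attach.image
      fun p => ⟨ps p.1.1 p.1.2, isIrr_ps (hmem p.1 p.2)⟩ := by
    ext χ
    simp only [psSet, Finset.mem_filter, Finset.mem_univ, true_and, Finset.mem_image,
      Finset.mem_attach]
    constructor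
    · rintro ⟨α, β, hne, e⟩
      exact ⟨⟨(α, β), by simp [hs, hne]⟩, Subtype.ext e.symm⟩
    · rintro ⟨⟨p, hp⟩, rfl⟩
      exact ⟨p.1, p.2, hmem p hp, rfl⟩
  have hfib : ∀ χ ∈ psSet (F := F), (s.attach.filter
      fun p => (⟨ps p.1.1 p.1.2, isIrr_ps (hmem p.1 p.2)⟩ : IrrCharacter (GL₂ F)) = χ).card = 2 := by
    intro χ hχ
    obtain ⟨α, β, hne, e⟩ := (Finset.mem_filter.1 hχ).2
    have h1 : (α, β) ∈ s := by simp [hs, hne]
    have h2 : (β, α) ∈ s := by simp [hs, Ne.symm hne]
    rw [Finset.card_eq_two]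
    refine ⟨⟨_, h1⟩, ⟨_, h2⟩, by simp [hne], ?_⟩
    ext ⟨⟨γ, δ⟩, hp⟩
    simp only [Finset.mem_filter, Finset.mem_attach, true_and, Finset.mem_insert,
      Finset.mem_singleton, Subtype.ext_iff, Prod.mk.injEq]
    rw [e, ps_eq_iff]
  have hsc : s.card = (psSet (F := F)).card * 2 := by
    rw [← Finset.card_attach, Finset.card_eq_sum_card_image (fun p : s =>
      (⟨ps p.1.1 p.1.2, isIrr_ps (hmem p.1 p.2)⟩ : IrrCharacter (GL₂ F))) s.attach, ← himg,
      Finset.sum_congr rfl hfib, Finset.sum_const, smul_eq_mul]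
  rw [mul_comm, ← hsc, hs, Finset.offDiag_card, Finset.card_univ, card_mulChar, ← Nat.mul_sub_one]
  congr 1

lemma deg_linSet {χ : IrrCharacter (GL₂ F)} (h : χ ∈ linSet) :
    (χ : (GL₂ F) → ℂ) 1 = ((1 : ℕ) : ℂ) := by
  obtain ⟨α, -, rfl⟩ := Finset.mem_image.1 h
  simp [lc_one]

lemma deg_stSet {χ : IrrCharacter (GL₂ F)} (h : χ ∈ stSet) :
    (χ : (GL₂ F) → ℂ) 1 = ((Fintype.card F : ℕ) : ℂ) := by
  obtain ⟨α, -, rfl⟩ := Finset.mem_image.1 h
  exact st_one α

lemma deg_psSet {χ : IrrCharacter (GL₂ F)} (h : χ ∈ psSet) :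
    (χ : (GL₂ F) → ℂ) 1 = ((Fintype.card F + 1 : ℕ) : ℂ) := by
  obtain ⟨α, β, -, e⟩ := (Finset.mem_filter.1 h).2
  rw [e, ps_one]
  push_cast
  ring

lemma univ_eq : (Finset.univ : Finset (IrrCharacter (GL₂ F))) =
    linSet ∪ stSet ∪ psSet ∪ cuspSet := by
  ext χ
  simp only [Finset.mem_univ, Finset.mem_union, true_iff]
  by_cases hc : IsCusp (χ : (GL₂ F) → ℂ)
  · exact Or.inr (Finset.mem_filter.2 ⟨Finset.mem_univ _, hc⟩)
  · rcases trichotomy χ.2 hc with ⟨α, e⟩ | ⟨α, e⟩ | h
    · exact Or.inl (Or.inl (Or.inl (Finset.mem_image.2 ⟨α, Finset.mem_univ _, Subtype.ext e.symm⟩)))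
    · exact Or.inl (Or.inl (Or.inr (Finset.mem_image.2 ⟨α, Finset.mem_univ _, Subtype.ext e.symm⟩)))
    · exact Or.inl (Or.inr (Finset.mem_filter.2 ⟨Finset.mem_univ _, h⟩))

lemma sum_split {M : Type*} [AddCommMonoid M] (f : IrrCharacter (GL₂ F) → M) :
    ∑ χ, f χ = ∑ χ ∈ linSet, f χ + ∑ χ ∈ stSet, f χ + ∑ χ ∈ psSet, f χ + ∑ χ ∈ cuspSet, f χ := by
  have hq := Fintype.one_lt_card (α := F)
  have d1 : Disjoint (linSet (F := F)) stSet := Finset.disjoint_left.2 fun χ h1 h2 => by
    have e := (deg_linSet h1).symm.trans (deg_stSet h2)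
    rw [Nat.cast_inj] at e
    omega
  have d2 : Disjoint (linSet ∪ stSet) (psSet (F := F)) := Finset.disjoint_left.2 fun χ h1 h2 => by
    rcases Finset.mem_union.1 h1 with h | h
    · have e := (deg_linSet h).symm.trans (deg_psSet h2)
      rw [Nat.cast_inj] at e
      omega
    · have e := (deg_stSet h).symm.trans (deg_psSet h2)
      rw [Nat.cast_inj] at e
      omega
  have d3 : Disjoint (linSet ∪ stSet ∪ psSet) (cuspSet (F := F)) :=
    Finset.disjoint_left.2 fun χ h1 h2 => by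
      have hc := (Finset.mem_filter.1 h2).2
      rcases Finset.mem_union.1 h1 with h | h
      · rcases Finset.mem_union.1 h with h | h
        · obtain ⟨α, -, rfl⟩ := Finset.mem_image.1 h
          exact not_isCusp_lc α hc
        · obtain ⟨α, -, rfl⟩ := Finset.mem_image.1 h
          exact not_isCusp_st α hc
      · obtain ⟨α, β, hne, e⟩ := (Finset.mem_filter.1 h).2
        rw [e] at hc
        exact not_isCusp_ps hne hc
  rw [univ_eq, Finset.sum_union d3, Finset.sum_union d2, Finset.sum_union d1]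

lemma card_cuspSet : 2 * (cuspSet (F := F)).card = Fintype.card F * (Fintype.card F - 1) := by
  have h := CfsgLib.Chars.card_irrCharacter (G := GL₂ F)
  rw [card_classes, Nat.card_eq_fintype_card, ← Finset.card_univ, Finset.card_eq_sum_ones,
    sum_split, ← Finset.card_eq_sum_ones, ← Finset.card_eq_sum_ones, ← Finset.card_eq_sum_ones,
    ← Finset.card_eq_sum_ones, card_linSet, card_stSet] at h
  have h2 := card_psSet (F := F)
  obtain ⟨r, hr⟩ : ∃ r, Fintype.card F = r + 2 :=
    ⟨_, (Nat.sub_add_cancel (Fintype.one_lt_card (α := F))).symm⟩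
  simp only [hr, Nat.add_sub_cancel, show r + 2 - 1 = r + 1 from rfl] at h h2 ⊢
  rw [show (r + 2) ^ 2 - 1 = (r + 1) * (r + 3) by
    rw [Nat.sub_eq_iff_eq_add (Nat.one_le_pow _ _ (by omega))]; ring] at h
  nlinarith [h, h2]

/-- Cuspidal characters have degree `q - 1`. -/
theorem cusp_values {χ : (GL₂ F) → ℂ} (hχ : IsIrrCharacter (GL₂ F) χ) (hc : IsCusp χ) :
    χ 1 = (qC F) - 1 ∧ χ (uu 1) = -1 := by
  obtain ⟨m₀, hm₀, h1, hu⟩ := cusp_degree hχ hc
  suffices m₀ = 1 by subst this; simpa using And.intro h1 hu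
  have hdeg : ∀ ψ ∈ cuspSet (F := F), ∃ m : ℕ, 0 < m ∧
      charDegree (ψ : (GL₂ F) → ℂ) = m * (Fintype.card F - 1) := by
    intro ψ hψ
    obtain ⟨m, hm, e, -⟩ := cusp_degree ψ.2 (Finset.mem_filter.1 hψ).2
    refine ⟨m, hm, CfsgLib.Chars.charDegree_eq_of_map_one ?_⟩
    rw [e, Nat.cast_mul, Nat.cast_sub (Fintype.card_pos (α := F)), Nat.cast_one]
  have hsum := CfsgLib.Chars.sum_charDegree_sq (G := GL₂ F)
  rw [sum_split,
    Finset.sum_congr rfl (fun ψ hψ => by rw [CfsgLib.Chars.charDegree_eq_of_map_one (deg_linSet hψ)]),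
    Finset.sum_const, card_linSet,
    Finset.sum_congr (s₁ := stSet) rfl
      (fun ψ hψ => by rw [CfsgLib.Chars.charDegree_eq_of_map_one (deg_stSet hψ)]),
    Finset.sum_const, card_stSet,
    Finset.sum_congr (s₁ := psSet) rfl
      (fun ψ hψ => by rw [CfsgLib.Chars.charDegree_eq_of_map_one (deg_psSet hψ)]),
    Finset.sum_const, Matrix.card_GL_field, Fin.prod_univ_two, smul_eq_mul, smul_eq_mul,
    smul_eq_mul] at hsum
  have hps := card_psSet (F := F)
  have hcc := card_cuspSet (F := F)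
  obtain ⟨r, hr⟩ : ∃ r, Fintype.card F = r + 2 :=
    ⟨_, (Nat.sub_add_cancel (Fintype.one_lt_card (α := F))).symm⟩
  have hge : ∀ ψ ∈ cuspSet (F := F),
      (Fintype.card F - 1) ^ 2 ≤ charDegree (ψ : (GL₂ F) → ℂ) ^ 2 := by
    intro ψ hψ
    obtain ⟨m, hm, e⟩ := hdeg ψ hψ
    rw [e]
    exact Nat.pow_le_pow_left (Nat.le_mul_of_pos_left _ hm) 2
  have htot : ∑ ψ ∈ cuspSet (F := F), (Fintype.card F - 1) ^ 2 =
      ∑ ψ ∈ cuspSet (F := F), charDegree (ψ : (GL₂ F) → ℂ) ^ 2 := by
    rw [Finset.sum_const, smul_eq_mul]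
    simp only [hr, Nat.add_sub_cancel, show r + 2 - 1 = r + 1 from rfl, Fin.val_zero,
      Fin.val_one, pow_zero, pow_one] at hsum hps hcc ⊢
    rw [show (r + 2) ^ 2 - 1 = (r + 1) * (r + 3) by
      rw [Nat.sub_eq_iff_eq_add (Nat.one_le_pow _ _ (by omega))]; ring,
      show (r + 2) ^ 2 - (r + 2) = (r + 2) * (r + 1) by
        rw [Nat.sub_eq_iff_eq_add (Nat.le_self_pow two_ne_zero _)]; ring] at hsum
    nlinarith [hsum, hps, hcc]
  have hall := (Finset.sum_eq_sum_iff_of_le hge).1 htot ⟨χ, hχ⟩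
    (Finset.mem_filter.2 ⟨Finset.mem_univ _, hc⟩)
  have hd : charDegree χ = m₀ * (Fintype.card F - 1) := CfsgLib.Chars.charDegree_eq_of_map_one
    (by rw [h1, Nat.cast_mul, Nat.cast_sub (Fintype.card_pos (α := F)), Nat.cast_one])
  have hk : 0 < Fintype.card F - 1 := by have := Fintype.one_lt_card (α := F); omega
  replace hall : Fintype.card F - 1 = charDegree χ :=
    Nat.pow_left_injective two_ne_zero hall
  rw [hd] at hall
  exact Nat.eq_of_mul_eq_mul_right hk (hall.symm.trans (one_mul _).symm)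

/-- All degrees, with the kind determined by the degree when `q ≥ 3`. -/
theorem classification {χ : (GL₂ F) → ℂ} (hχ : IsIrrCharacter (GL₂ F) χ) :
    (∃ α, χ = lc α ∧ χ 1 = 1) ∨ (∃ α, χ = st α ∧ χ 1 = qC F) ∨
      (∃ α β, α ≠ β ∧ χ = ps α β ∧ χ 1 = (qC F) + 1) ∨ (IsCusp χ ∧ χ 1 = (qC F) - 1) := by
  by_cases hc : IsCusp χ
  · exact Or.inr (Or.inr (Or.inr ⟨hc, (cusp_values hχ hc).1⟩))
  · rcases trichotomy hχ hc with ⟨α, rfl⟩ | ⟨α, rfl⟩ | ⟨α, β, h, rfl⟩
    · exact Or.inl ⟨α, rfl, lc_one α⟩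
    · exact Or.inr (Or.inl ⟨α, rfl, st_one α⟩)
    · exact Or.inr (Or.inr (Or.inl ⟨α, β, h, rfl, ps_one α β⟩))

end CfsgLib.Gl2Chars
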