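import Cfsg.Agent.Gl2Chars.Table

/-!
# Values of the characters of `GL₂(q)`
-/

set_option autoImplicit false

noncomputable section

open scoped ComplexConjugate Classical
open Cfsg

namespace CfsgLib.Gl2Chars

universe u

variable {F : Type u} [Field F] [Fintype F] [DecidableEq F]

local notation "GL₂" F => Matrix.GeneralLinearGroup (Fin 2) F
local notation "qC" F => (Fintype.card F : ℂ)
local notation "M₂" F => Matrix (Fin 2) (Fin 2) F

/-- No eigenvector in `F²`. -/
def NoEigen (g : GL₂ F) : Prop :=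
  ∀ (c : F) (v : Fin 2 → F), v ≠ 0 → (g : M₂ F).mulVec v ≠ c • v

lemma ps_elliptic (α β : MulChar F ℂ) {g : GL₂ F} (hg : NoEigen g) : ps α β g = 0 := by
  have h10 : (g : M₂ F) 1 0 ≠ 0 := by
    intro h
    refine hg ((g : M₂ F) 0 0) ![1, 0] (fun e => one_ne_zero (congrFun e 0)) ?_
    ext i
    fin_cases i <;> simp [Matrix.mulVec, dotProduct, h]
  rw [ps_apply, if_neg h10, zero_add, Finset.sum_eq_zero]
  intro t _
  rw [if_neg]
  intro ht
  refine hg ((g : M₂ F) 1 0 * t + (g : M₂ F) 1 1) ![t, 1] (fun e => one_ne_zero (congrFun e 1)) ?_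
  ext i
  fin_cases i <;> simp [Matrix.mulVec, dotProduct]
  linear_combination ht

lemma ps_diag (α β : MulChar F ℂ) {g : GL₂ F} (h01 : (g : M₂ F) 0 1 = 0) (h10 : (g : M₂ F) 1 0 = 0)
    (hne : (g : M₂ F) 0 0 ≠ (g : M₂ F) 1 1) :
    ps α β g = α ((g : M₂ F) 0 0) * β ((g : M₂ F) 1 1) + α ((g : M₂ F) 1 1) * β ((g : M₂ F) 0 0) := by
  rw [ps_apply, if_pos h10]
  congr 1
  rw [Finset.sum_eq_single 0]
  · simp [h01]
  · intro t _ ht
    rw [if_neg]
    intro e
    rw [h01, h10] at e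
    have : ((g : M₂ F) 0 0 - (g : M₂ F) 1 1) * t = 0 := by linear_combination e
    exact ht ((mul_eq_zero.1 this).resolve_left (sub_ne_zero.2 hne))
  · simp

lemma ps_scalar (α β : MulChar F ℂ) {g : GL₂ F} {a : F} (hg : (g : M₂ F) = a • (1 : M₂ F)) :
    ps α β g = ((qC F) + 1) * (α a * β a) := by
  rw [ps_apply]
  simp [hg]
  rw [Finset.sum_eq_card_nsmul (b := α a * β a)]
  · simp [nsmul_eq_mul]
    ring
  · intro t _
    rw [if_pos (by ring)]

lemma ps_transvection (α β : MulChar F ℂ) {g : GL₂ F} (h10 : (g : M₂ F) 1 0 = 0)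
    (heq : (g : M₂ F) 0 0 = (g : M₂ F) 1 1) (h01 : (g : M₂ F) 0 1 ≠ 0) :
    ps α β g = α ((g : M₂ F) 0 0) * β ((g : M₂ F) 1 1) := by
  rw [ps_apply, if_pos h10, Finset.sum_eq_zero, add_zero]
  intro t _
  rw [if_neg]
  intro e
  apply h01
  rw [h10, heq] at e
  linear_combination e

/-- The number of fixed lines. -/
theorem fixed_lines (g : GL₂ F) :
    ((∃ a : F, (g : M₂ F) = a • (1 : M₂ F)) →
      fixedPointCharacter (upperTriangularGL 2 F) g = (qC F) + 1) ∧
    ((g : M₂ F) 0 1 = 0 → (g : M₂ F) 1 0 = 0 → (g : M₂ F) 0 0 ≠ (g : M₂ F) 1 1 →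
      fixedPointCharacter (upperTriangularGL 2 F) g = 2) ∧
    (NoEigen g → fixedPointCharacter (upperTriangularGL 2 F) g = 0) ∧
    ((g : M₂ F) 1 0 = 0 → (g : M₂ F) 0 0 = (g : M₂ F) 1 1 → (g : M₂ F) 0 1 ≠ 0 →
      fixedPointCharacter (upperTriangularGL 2 F) g = 1) := by
  have hd := det_ne_zero' g
  refine ⟨?_, ?_, fun h => by rw [fixedPointCharacter_upper, ps_elliptic 1 1 h], ?_⟩
  · rintro ⟨a, ha⟩
    have ha0 : a ≠ 0 := by rintro rfl; simp [ha] at hd
    rw [fixedPointCharacter_upper, ps_scalar 1 1 ha, MulChar.one_apply (isUnit_iff_ne_zero.2 ha0)]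
    ring
  · intro h01 h10 hne
    rw [h01, zero_mul, sub_zero] at hd
    rw [fixedPointCharacter_upper, ps_diag 1 1 h01 h10 hne,
      MulChar.one_apply (isUnit_iff_ne_zero.2 (left_ne_zero_of_mul hd)),
      MulChar.one_apply (isUnit_iff_ne_zero.2 (right_ne_zero_of_mul hd))]
    norm_num
  · intro h10 heq h01
    rw [h10, mul_zero, sub_zero] at hd
    rw [fixedPointCharacter_upper, ps_transvection 1 1 h10 heq h01,
      MulChar.one_apply (isUnit_iff_ne_zero.2 (left_ne_zero_of_mul hd)),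
      MulChar.one_apply (isUnit_iff_ne_zero.2 (right_ne_zero_of_mul hd))]
    norm_num

/-- A cuspidal character vanishes at split regular semisimple elements. -/
lemma cusp_diag {χ : (GL₂ F) → ℂ} (hχ : IsIrrCharacter (GL₂ F) χ) (hc : IsCusp χ) {g : GL₂ F}
    (h01 : (g : M₂ F) 0 1 = 0) (h10 : (g : M₂ F) 1 0 = 0)
    (hne : (g : M₂ F) 0 0 ≠ (g : M₂ F) 1 1) : χ g = 0 := by
  have hcl := CfsgLib.Chars.isClassFunction_of_isCharacter
    (CfsgLib.Chars.isCharacter_of_isIrrCharacter hχ)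
  have hconj : ∀ c : F, χ (g * uu c) = χ g := by
    intro c
    refine (CfsgLib.Chars.eq_of_isConj hcl (isConj_iff.2
      ⟨uu ((g : M₂ F) 0 0 * c / ((g : M₂ F) 1 1 - (g : M₂ F) 0 0)), ?_⟩)).symm
    rw [mul_inv_eq_iff_eq_mul]
    apply Units.ext
    have hs : (g : M₂ F) 1 1 - (g : M₂ F) 0 0 ≠ 0 := sub_ne_zero.2 (Ne.symm hne)
    ext i j
    fin_cases i <;> fin_cases j <;>
      simp [uu, Matrix.mul_apply, Fin.sum_univ_two, h01, h10]
    field_simp
    ring
  have hsum : ∑ c : F, χ (g * uu c) = 0 := by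
    obtain ⟨n, ρ, hρ, rfl⟩ := hχ
    have hq : (qC F) ≠ 0 := Nat.cast_ne_zero.2 Fintype.card_ne_zero
    set S : Module.End ℂ (Fin n → ℂ) := ∑ c : F, ρ (uu c) with hS
    have hSS : S * S = (qC F) • S := by
      rw [hS, Finset.sum_mul]
      rw [Finset.sum_congr rfl (g := fun _ => ∑ c : F, ρ (uu c)) (fun a _ => ?_),
        Finset.sum_const, Finset.card_univ, ← Nat.cast_smul_eq_nsmul ℂ]
      rw [Finset.mul_sum]
      refine Fintype.sum_equiv (Equiv.addLeft a) _ _ fun b => ?_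
      rw [← map_mul, ← uu_add]
      rfl
    set P : Module.End ℂ (Fin n → ℂ) := (qC F)⁻¹ • S with hP
    have hPi : IsIdempotentElem P := by
      show P * P = P
      rw [hP, smul_mul_smul_comm, hSS, smul_smul]
      congr 1
      field_simp
    have htS : LinearMap.trace ℂ (Fin n → ℂ) S = 0 := by
      rw [hS, map_sum]
      exact sum_uu_of_isCusp ⟨n, ρ, hρ, rfl⟩ hc
    have hproj := LinearMap.IsIdempotentElem.isProj_range P hPi
    have htP : LinearMap.trace ℂ (Fin n → ℂ) P = 0 := by rw [hP, map_smul, htS, smul_zero]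
    rw [hproj.trace, Nat.cast_eq_zero, Submodule.finrank_eq_zero, LinearMap.range_eq_bot] at htP
    have hS0 : S = 0 := by
      rw [← one_smul ℂ S, ← mul_inv_cancel₀ hq, ← smul_smul, ← hP, htP, smul_zero]
    calc ∑ c : F, ρ.character (g * uu c)
        = LinearMap.trace ℂ (Fin n → ℂ) (ρ g * S) := by
          rw [hS, Finset.mul_sum, map_sum]
          exact Finset.sum_congr rfl fun c _ => by rw [Representation.character, map_mul]
      _ = 0 := by rw [hS0, mul_zero, map_zero]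
  simp only [hconj, Finset.sum_const, Finset.card_univ, nsmul_eq_mul, mul_eq_zero,
    Nat.cast_eq_zero, Fintype.card_ne_zero, false_or] at hsum
  exact hsum

/-- Degrees and zeros. -/
theorem zeros (χ : (GL₂ F) → ℂ) (hχ : IsIrrCharacter (GL₂ F) χ) (g : GL₂ F) :
    (χ 1 = (qC F) - 1 → (g : M₂ F) 0 1 = 0 → (g : M₂ F) 1 0 = 0 →
      (g : M₂ F) 0 0 ≠ (g : M₂ F) 1 1 → χ g = 0) ∧
    (χ 1 = (qC F) + 1 → NoEigen g → χ g = 0) := by
  have hq := Fintype.one_lt_card (α := F)
  constructor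
  · intro h1 h01 h10 hne
    have hq3 : 3 ≤ Fintype.card F := by
      have hd := det_ne_zero' g
      rw [h01, zero_mul, sub_zero] at hd
      have hsub : ({0, (g : M₂ F) 0 0, (g : M₂ F) 1 1} : Finset F).card = 3 :=
        Finset.card_eq_three.2 ⟨0, _, _, (left_ne_zero_of_mul hd).symm,
          (right_ne_zero_of_mul hd).symm, hne, rfl⟩
      rw [← hsub]
      exact Finset.card_le_univ _
    rcases classification hχ with ⟨α, rfl, e⟩ | ⟨α, rfl, e⟩ | ⟨α, β, -, rfl, e⟩ | ⟨hc, -⟩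
    · rw [e] at h1
      have : ((Fintype.card F : ℕ) : ℂ) = ((2 : ℕ) : ℂ) := by push_cast; linear_combination -h1
      rw [Nat.cast_inj] at this
      omega
    · rw [e] at h1
      exact absurd (show (1 : ℂ) = 0 by linear_combination h1) one_ne_zero
    · rw [e] at h1
      exact absurd (show (2 : ℂ) = 0 by linear_combination h1) two_ne_zero
    · exact cusp_diag hχ hc h01 h10 hne
  · intro h1 hg
    rcases classification hχ with ⟨α, rfl, e⟩ | ⟨α, rfl, e⟩ | ⟨α, β, -, rfl, -⟩ | ⟨-, e⟩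
    · rw [e] at h1
      exact absurd (show (qC F) = 0 by linear_combination -h1)
        (Nat.cast_ne_zero.2 Fintype.card_ne_zero)
    · rw [e] at h1
      exact absurd (show (1 : ℂ) = 0 by linear_combination -h1) one_ne_zero
    · exact ps_elliptic α β hg
    · rw [e] at h1
      exact absurd (show (2 : ℂ) = 0 by linear_combination -h1) two_ne_zero

/-- Values at a transvection. -/
theorem transvection_values (hq : 3 ≤ Fintype.card F) (χ : (GL₂ F) → ℂ)
    (hχ : IsIrrCharacter (GL₂ F) χ) (u : GL₂ F) (hu : (u : M₂ F) = !![1, 1; 0, 1]) :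
    (χ 1 = 1 → χ u = 1) ∧ (χ 1 = (qC F) + 1 → χ u = 1) ∧
    (χ 1 = (qC F) - 1 → χ u = -1) ∧ (χ 1 = (qC F) → χ u = 0) := by
  have hu' : u = uu 1 := Units.ext (by simp [hu, uu])
  have hq1 : (qC F) ≠ 1 := by rw [← Nat.cast_one, Ne, Nat.cast_inj]; omega
  have hq2 : (qC F) ≠ 2 := by rw [← Nat.cast_ofNat, Ne, Nat.cast_inj]; omega
  have hq0 : (qC F) ≠ 0 := Nat.cast_ne_zero.2 Fintype.card_ne_zero
  have hps : ∀ α β : MulChar F ℂ, ps α β u = 1 := fun α β => by
    rw [ps_transvection α β (by simp [hu]) (by simp [hu]) (by simp [hu])]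
    simp [hu]
  have hlc : ∀ α : MulChar F ℂ, lc α u = 1 := fun α => by simp [lc, hu, Matrix.det_fin_two]
  rcases classification hχ with ⟨α, rfl, e⟩ | ⟨α, rfl, e⟩ | ⟨α, β, -, rfl, e⟩ | ⟨hc, e⟩
  · refine ⟨fun _ => hlc α, fun h => ?_, fun h => ?_, fun h => ?_⟩ <;> rw [e] at h
    · exact absurd (show (qC F) = 0 by linear_combination -h) hq0
    · exact absurd (show (qC F) = 2 by linear_combination -h) hq2
    · exact absurd h.symm hq1
  · have hv : st α u = 0 := by rw [st, Pi.sub_apply, hps, hlc, sub_self]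
    refine ⟨fun h => ?_, fun h => ?_, fun h => ?_, fun _ => hv⟩ <;> rw [e] at h
    · exact absurd h hq1
    · exact absurd (show (1 : ℂ) = 0 by linear_combination -h) one_ne_zero
    · exact absurd (show (1 : ℂ) = 0 by linear_combination h) one_ne_zero
  · refine ⟨fun h => ?_, fun _ => hps α β, fun h => ?_, fun h => ?_⟩ <;> rw [e] at h
    · exact absurd (show (qC F) = 0 by linear_combination h) hq0
    · exact absurd (show (2 : ℂ) = 0 by linear_combination h) two_ne_zero
    · exact absurd (show (1 : ℂ) = 0 by linear_combination h) one_ne_zero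
  · refine ⟨fun h => ?_, fun h => ?_, fun _ => ?_, fun h => ?_⟩
    · rw [e] at h; exact absurd (show (qC F) = 2 by linear_combination h) hq2
    · rw [e] at h; exact absurd (show (2 : ℂ) = 0 by linear_combination -h) two_ne_zero
    · rw [hu']; exact (cusp_values hχ hc).2
    · rw [e] at h; exact absurd (show (1 : ℂ) = 0 by linear_combination -h) one_ne_zero

/-- Characters of degree `q` at regular semisimple elements. -/
theorem degree_q_values (χ : (GL₂ F) → ℂ) (hχ : IsIrrCharacter (GL₂ F) χ)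
    (hdeg : χ 1 = qC F) (g : GL₂ F) :
    ((g : M₂ F) 0 1 = 0 → (g : M₂ F) 1 0 = 0 → (g : M₂ F) 0 0 ≠ (g : M₂ F) 1 1 → ‖χ g‖ = 1) ∧
    (NoEigen g → ‖χ g‖ = 1) := by
  have hq1 : (qC F) ≠ 1 := by exact_mod_cast (Fintype.one_lt_card (α := F)).ne'
  rcases classification hχ with ⟨α, rfl, e⟩ | ⟨α, rfl, -⟩ | ⟨α, β, -, rfl, e⟩ | ⟨-, e⟩
  · exact absurd (hdeg.symm.trans e) hq1
  · have hd := det_ne_zero' g
    constructor
    · intro h01 h10 hne
      rw [h01, zero_mul, sub_zero] at hd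
      rw [st, Pi.sub_apply, ps_diag α α h01 h10 hne, lc, Matrix.det_fin_two, h01, zero_mul,
        sub_zero, map_mul, mul_comm (α ((g : M₂ F) 1 1)), add_sub_cancel_right, ← map_mul]
      exact norm_mulChar α hd
    · intro hg
      rw [st, Pi.sub_apply, ps_elliptic α α hg, zero_sub, norm_neg, lc]
      exact norm_mulChar α (Matrix.GeneralLinearGroup.det_ne_zero g)
  · rw [e] at hdeg
    exact absurd (show (1 : ℂ) = 0 by linear_combination hdeg) one_ne_zero
  · rw [e] at hdeg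
    exact absurd (show (1 : ℂ) = 0 by linear_combination -hdeg) one_ne_zero

/-- The degrees and their multiplicities. -/
theorem degrees :
    (∀ χ : (GL₂ F) → ℂ, IsIrrCharacter (GL₂ F) χ →
      χ 1 = 1 ∨ χ 1 = (qC F) - 1 ∨ χ 1 = (qC F) ∨ χ 1 = (qC F) + 1) ∧
    (3 ≤ Fintype.card F →
      Nat.card {χ : IrrCharacter (GL₂ F) // (χ : (GL₂ F) → ℂ) 1 = 1} = Fintype.card F - 1 ∧
      Nat.card {χ : IrrCharacter (GL₂ F) // (χ : (GL₂ F) → ℂ) 1 = qC F} = Fintype.card F - 1 ∧
      Nat.card {χ : IrrCharacter (GL₂ F) // (χ : (GL₂ F) → ℂ) 1 = (qC F) + 1} =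
        (Fintype.card F - 1) * (Fintype.card F - 2) / 2 ∧
      Nat.card {χ : IrrCharacter (GL₂ F) // (χ : (GL₂ F) → ℂ) 1 = (qC F) - 1} =
        Fintype.card F * (Fintype.card F - 1) / 2) := by
  refine ⟨fun χ hχ => ?_, fun hq => ?_⟩
  · rcases classification hχ with ⟨α, -, e⟩ | ⟨α, -, e⟩ | ⟨α, β, -, -, e⟩ | ⟨-, e⟩ <;> tauto
  · have hcount : ∀ z : ℂ, Nat.card {χ : IrrCharacter (GL₂ F) // (χ : (GL₂ F) → ℂ) 1 = z} =
        (if (1 : ℂ) = z then (linSet (F := F)).card else 0) +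
        (if (qC F) = z then (stSet (F := F)).card else 0) +
        (if (qC F) + 1 = z then (psSet (F := F)).card else 0) +
        (if (qC F) - 1 = z then (cuspSet (F := F)).card else 0) := by
      intro z
      rw [Nat.card_eq_fintype_card, Fintype.card_subtype, Finset.card_eq_sum_ones,
        Finset.sum_filter, sum_split]
      congr 1; congr 1; congr 1
      · rw [Finset.sum_congr rfl (g := fun _ => if (1 : ℂ) = z then 1 else 0)
          (fun χ hχ => by rw [deg_linSet hχ, Nat.cast_one])]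
        split_ifs <;> simp
      · rw [Finset.sum_congr rfl (g := fun _ => if (qC F) = z then 1 else 0)
          (fun χ hχ => by rw [deg_stSet hχ])]
        split_ifs <;> simp
      · rw [Finset.sum_congr rfl (g := fun _ => if (qC F) + 1 = z then 1 else 0)
          (fun χ hχ => by rw [deg_psSet hχ, Nat.cast_succ])]
        split_ifs <;> simp
      · rw [Finset.sum_congr rfl (g := fun _ => if (qC F) - 1 = z then 1 else 0)
          (fun χ hχ => by rw [(cusp_values χ.2 (Finset.mem_filter.1 hχ).2).1])]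
        split_ifs <;> simp
    have hq1 : (qC F) ≠ 1 := by rw [← Nat.cast_one, Ne, Nat.cast_inj]; omega
    have hq2 : (qC F) ≠ 2 := by rw [← Nat.cast_ofNat, Ne, Nat.cast_inj]; omega
    have hq0 : (qC F) ≠ 0 := Nat.cast_ne_zero.2 Fintype.card_ne_zero
    have a1 : (qC F) + 1 ≠ 1 := fun h => hq0 (by linear_combination h)
    have a2 : (qC F) - 1 ≠ 1 := fun h => hq2 (by linear_combination h)
    have a3 : (qC F) + 1 ≠ qC F := fun h => one_ne_zero (α := ℂ) (by linear_combination h)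
    have a4 : (qC F) - 1 ≠ qC F := fun h => one_ne_zero (α := ℂ) (by linear_combination -h)
    have a5 : (qC F) - 1 ≠ (qC F) + 1 := fun h => two_ne_zero (α := ℂ) (by linear_combination -h)
    have hp := card_psSet (F := F)
    have hc := card_cuspSet (F := F)
    refine ⟨?_, ?_, ?_, ?_⟩ <;> rw [hcount] <;>
      simp [card_linSet, card_stSet, hq1, Ne.symm hq1, a1, a2, a3, a4, a5, Ne.symm a1,
        Ne.symm a2, Ne.symm a3, Ne.symm a4, Ne.symm a5] <;> omega

end CfsgLib.Gl2Chars
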